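/-
Certificates for coset enumerations in groups (letters `2i`, `2i+1` are mutually inverse) and for derivations
of relators.
-/
import Cfsg.Agent.Fi.Real
set_option autoImplicit false

namespace CA.J4p
open CA.TC

/-- The inverse letter. -/
def il (l : ℕ) : ℕ := Nat.xor l 1

/-- The inverse word. -/
def iw (w : List ℕ) : List ℕ := (w.map il).reverse

/-- Free reduction, first step. -/
def push (g : ℕ) : List ℕ → List ℕ
  | [] => [g]
  | h :: w => if il g = h then w else g :: h :: w

/-- Free reduction. -/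
def red : List ℕ → List ℕ
  | [] => []
  | g :: w => push g (red w)

/-- Rotation. -/
def rot (w : List ℕ) (j : ℕ) : List ℕ := w.drop j ++ w.take j

/-- A word or its inverse. -/
def sgn (s : ℕ) (w : List ℕ) : List ℕ := if s = 0 then w else iw w

/-- Substitution of `w⁻¹` for `g`. -/
def sub1 (g : ℕ) (w : List ℕ) (l : ℕ) : List ℕ := if l = g then iw w else if l = il g then w else [l]

/-- Substitution along a relator. -/
def subR : List ℕ → List ℕ → List ℕ
  | [], u => u
  | g :: w, u => u.flatMap (sub1 g w)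

/-- Expansion of the letters. -/
def expand (E : ℕ → List ℕ) (w : List ℕ) : List ℕ :=
  w.flatMap fun l => if l % 2 = 0 then E (l / 2) else iw (E (l / 2))

/-- Equality of words. -/
noncomputable def eqL (u : List ℕ) : List ℕ → Bool :=
  List.rec (fun w => List.rec true (fun _ _ _ => false) w)
    (fun a _ ih w => List.rec false (fun b w' _ => band (Nat.beq a b) (ih w')) w) u

theorem eqL_spec : ∀ {u w : List ℕ}, eqL u w = true → u = w
  | [], [], _ => rfl
  | [], _ :: _, h => by cases h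
  | _ :: _, [], h => by cases h
  | a :: u, b :: w, h => by
    have h' : band (Nat.beq a b) (eqL u w) = true := h
    rw [band_iff, beq_iff] at h'
    rw [h'.1, eqL_spec h'.2]

theorem il_il (l : ℕ) : il (il l) = l := by
  show (l ^^^ 1) ^^^ 1 = l
  rw [Nat.xor_assoc, Nat.xor_self, Nat.xor_zero]

theorem il_even {l : ℕ} (h : l % 2 = 0) : il l = l + 1 := Nat.xor_one_of_even (Nat.even_iff.2 h)

theorem il_odd {l : ℕ} (h : l % 2 = 1) : il l = l - 1 := Nat.xor_one_of_odd (Nat.odd_iff.2 h)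

section
variable {G : Type*} [Group G]

/-- The valuation of the letters attached to values of the generators. -/
def vl (g : ℕ → G) (l : ℕ) : G := if l % 2 = 0 then g (l / 2) else (g (l / 2))⁻¹

/-- Inverse letters have inverse values. -/
def Val (v : ℕ → G) : Prop := ∀ l, v (il l) = (v l)⁻¹

theorem val_vl (g : ℕ → G) : Val (vl g) := by
  intro l
  unfold vl
  rcases Nat.mod_two_eq_zero_or_one l with h | h
  · rw [il_even h, if_neg (by omega), if_pos h, show (l + 1) / 2 = l / 2 by omega]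
  · rw [il_odd h, if_pos (by omega), if_neg (by omega), show (l - 1) / 2 = l / 2 by omega, inv_inv]

variable {v : ℕ → G}

theorem wd_iw (hv : Val v) (w : List ℕ) : wd v (iw w) = (wd v w)⁻¹ := by
  induction w with
  | nil => simp [iw]
  | cons g w ih =>
    unfold iw at *
    rw [List.map_cons, List.reverse_cons, wd_append, ih, wd_cons, wd_cons, wd_nil, mul_one, mul_inv_rev, hv]

theorem wd_push (hv : Val v) (g : ℕ) (w : List ℕ) : wd v (push g w) = v g * wd v w := by
  cases w with
  | nil => simp [push]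
  | cons h w =>
    show wd v (if il g = h then w else g :: h :: w) = _
    split_ifs with e
    · subst e; rw [wd_cons, hv, ← mul_assoc, mul_inv_cancel, one_mul]
    · rw [wd_cons]

theorem wd_red (hv : Val v) (w : List ℕ) : wd v (red w) = wd v w := by
  induction w with
  | nil => rfl
  | cons g w ih => rw [red, wd_push hv, ih, wd_cons]

theorem wd_rot {w : List ℕ} (h : wd v w = 1) (j : ℕ) : wd v (rot w j) = 1 := by
  unfold rot
  rw [← List.take_append_drop j w, wd_append] at h
  rw [wd_append, mul_eq_one_iff_eq_inv.1 h, mul_inv_cancel]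

theorem wd_sgn (hv : Val v) {w : List ℕ} (h : wd v w = 1) (s : ℕ) : wd v (sgn s w) = 1 := by
  unfold sgn
  split_ifs
  · exact h
  · rw [wd_iw hv, h, inv_one]

theorem wd_flatMap {v' : ℕ → G} {f : ℕ → List ℕ} (h : ∀ l, wd v (f l) = v' l) (w : List ℕ) :
    wd v (w.flatMap f) = wd v' w := by
  induction w with
  | nil => rfl
  | cons g w ih => rw [List.flatMap_cons, wd_append, h, ih, wd_cons]

theorem wd_subR (hv : Val v) {r : List ℕ} (h : wd v r = 1) (u : List ℕ) : wd v (subR r u) = wd v u := by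
  cases r with
  | nil => rfl
  | cons g w =>
    rw [wd_cons] at h
    refine wd_flatMap (fun l => ?_) u
    unfold sub1
    split_ifs with h1 h2
    · rw [wd_iw hv, h1, mul_eq_one_iff_eq_inv.1 h]
    · rw [h2, hv, mul_eq_one_iff_eq_inv.1 h, inv_inv]
    · simp

theorem wd_expand (hv : Val v) (E : ℕ → List ℕ) (w : List ℕ) :
    wd v (expand E w) = wd (vl fun k => wd v (E k)) w := by
  refine wd_flatMap (fun l => ?_) w
  unfold vl
  split_ifs
  · rfl
  · exact wd_iw hv _

theorem wd_map {H : Type*} [Group H] (f : G →* H) (g : ℕ → G) (w : List ℕ) :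
    f (wd (vl g) w) = wd (vl fun k => f (g k)) w := by
  induction w with
  | nil => simp
  | cons a w ih =>
    rw [wd_cons, wd_cons, map_mul, ih]
    congr 1
    unfold vl
    split_ifs <;> simp

/-- Powers of a word. -/
def rp (n : ℕ) (w : List ℕ) : List ℕ := (List.replicate n w).flatten

theorem wd_rp (n : ℕ) (w : List ℕ) : wd v (rp n w) = wd v w ^ n := by
  induction n with
  | zero => simp [rp]
  | succ n ih =>
    unfold rp at *
    rw [List.replicate_succ, List.flatten_cons, wd_append, ih, pow_succ']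

theorem wd_getD {l : List (List ℕ)} (h : ∀ w ∈ l, wd v w = 1) (i : ℕ) : wd v (l.getD i []) = 1 := by
  rcases Nat.lt_or_ge i l.length with h1 | h1
  · rw [List.getD_eq_getElem _ _ h1]; exact h _ (List.getElem_mem h1)
  · rw [List.getD_eq_default _ _ h1]; rfl

end

/-- Justifications of relators. -/
inductive Ju where
  | ax (i : ℕ) : Ju
  | ex (b : ℕ) (u : List ℕ) : Ju
  | mu (b a s i j : ℕ) : Ju
  | su (b a : ℕ) : Ju
  | ro (b j s : ℕ) : Ju

/-- Check of entry `n` of a store of relators. -/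
noncomputable def chkJ (axs : List (List ℕ)) (E : ℕ → List ℕ) (K : BT (List ℕ × Ju)) (n : ℕ) : Bool :=
  Prod.rec (fun w ju => Ju.rec
    (fun i => eqL w (axs.getD i []))
    (fun b u => band (blt b n) (eqL (red (expand E w)) (red (expand E (u ++ ((K.sel b).1 ++ iw u))))))
    (fun b a s i j => band (blt b n) (band (blt a n) (eqL w (red (rot (sgn s (K.sel a).1) i ++ rot (K.sel b).1 j)))))
    (fun b a => band (blt b n) (band (blt a n) (eqL w (red (subR (K.sel a).1 (K.sel b).1)))))
    (fun b j s => band (blt b n) (eqL w (sgn s (red (rot (K.sel b).1 j))))) ju) (K.sel n)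

theorem store_sound {G : Type*} [Group G] {v0 : ℕ → G} (hv0 : Val v0) {axs : List (List ℕ)} {E : ℕ → List ℕ}
    {K : BT (List ℕ × Ju)} {N : ℕ} (hax : ∀ w ∈ axs, wd (vl fun k => wd v0 (E k)) w = 1)
    (h : ∀ n < N, chkJ axs E K n = true) : ∀ n < N, wd (vl fun k => wd v0 (E k)) (K.sel n).1 = 1 := by
  have hv := val_vl fun k => wd v0 (E k)
  intro n
  induction n using Nat.strong_induction_on with
  | _ n ih =>
  intro hn
  have ih' : ∀ m < n, wd (vl fun k => wd v0 (E k)) (K.sel m).1 = 1 := fun m hm => ih m hm (hm.trans hn)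
  have hc := h n hn
  unfold chkJ at hc
  generalize K.sel n = z at hc ⊢
  obtain ⟨w, ju⟩ := z
  cases ju with
  | ax i =>
    have h2 : eqL w (axs.getD i []) = true := hc
    show wd _ w = 1
    rw [eqL_spec h2]; exact wd_getD hax i
  | ex b u =>
    have h2 : band (blt b n) (eqL (red (expand E w)) (red (expand E (u ++ ((K.sel b).1 ++ iw u))))) = true := hc
    rw [band_iff, blt_iff] at h2
    have h3 := congrArg (wd v0) (eqL_spec h2.2)
    rw [wd_red hv0, wd_red hv0, wd_expand hv0, wd_expand hv0, wd_append, wd_append, ih' b h2.1, wd_iw hv] at h3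
    show wd _ w = 1
    rw [h3]; simp
  | mu b a s i j =>
    have h2 : band (blt b n) (band (blt a n)
      (eqL w (red (rot (sgn s (K.sel a).1) i ++ rot (K.sel b).1 j)))) = true := hc
    rw [band_iff, band_iff, blt_iff, blt_iff] at h2
    show wd _ w = 1
    rw [eqL_spec h2.2.2, wd_red hv, wd_append, wd_rot (wd_sgn hv (ih' a h2.2.1) s), wd_rot (ih' b h2.1), mul_one]
  | su b a =>
    have h2 : band (blt b n) (band (blt a n) (eqL w (red (subR (K.sel a).1 (K.sel b).1)))) = true := hc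
    rw [band_iff, band_iff, blt_iff, blt_iff] at h2
    show wd _ w = 1
    rw [eqL_spec h2.2.2, wd_red hv, wd_subR hv (ih' a h2.2.1), ih' b h2.1]
  | ro b j s =>
    have h2 : band (blt b n) (eqL w (sgn s (red (rot (K.sel b).1 j)))) = true := hc
    rw [band_iff, blt_iff] at h2
    show wd _ w = 1
    rw [eqL_spec h2.2]
    exact wd_sgn hv (by rw [wd_red hv]; exact wd_rot (ih' b h2.1) j) s

/-- The listed words occur in the store. -/
noncomputable def chkL (K : BT (List ℕ × Ju)) (N : ℕ) (l : List (List ℕ)) : List ℕ → Bool :=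
  List.rec (fun _ => true) (fun w _ ih ix => List.rec false (fun n ix' _ =>
    band (blt n N) (band (eqL w (K.sel n).1) (ih ix'))) ix) l

theorem chkL_spec {K : BT (List ℕ × Ju)} {N : ℕ} {P : List ℕ → Prop} (hK : ∀ n < N, P (K.sel n).1) :
    ∀ {l : List (List ℕ)} {ix : List ℕ}, chkL K N l ix = true → ∀ w ∈ l, P w
  | [], _, _ => by simp
  | _ :: _, [], h => by cases h
  | w :: l, n :: ix, h => by
    have h2 : band (blt n N) (band (eqL w (K.sel n).1) (chkL K N l ix)) = true := h
    rw [band_iff, band_iff, blt_iff] at h2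
    intro u hu
    rcases List.mem_cons.1 hu with rfl | hu
    · rw [eqL_spec h2.2.1]; exact hK n h2.1
    · exact chkL_spec hK h2.2.2 u hu

/-- Justifications of facts. -/
inductive Pf where
  | df : Pf
  | cyc (r : ℕ) (st : List ℕ) : Pf
  | pin (r : ℕ) (pre post : List ℕ) : Pf

/-- A certificate. Facts are packed as `p + 2^20 * q + 2^40 * h`; `h = 63` is the identity. -/
structure Cert where
  nf : ℕ
  F : ℕ → ℕ
  P : BT Pf
  /-- word, index of the relator, rotation -/
  R : BT (List ℕ × ℕ × ℕ)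
  n : ℕ
  ls : List ℕ
  lab : ℕ → ℕ
  tg : ℕ → ℕ → ℕ
  fi : ℕ → ℕ → ℕ

noncomputable def fp (f : ℕ) : ℕ := Nat.land f (nat_lit 1048575)
noncomputable def fq (f : ℕ) : ℕ := Nat.land (Nat.shiftRight f (nat_lit 20)) (nat_lit 1048575)
noncomputable def fh (f : ℕ) : ℕ := Nat.shiftRight f (nat_lit 40)

/-- One step along the fact `(p, q, h)`. -/
noncomputable def stp (p q h : ℕ) (k : List ℕ → ℕ → Bool) (w : List ℕ) (c : ℕ) : Bool :=
  Bool.rec
    (List.rec false (fun g w' _ => Bool.rec (band (Nat.beq (Nat.xor g (nat_lit 1)) h) (band (Nat.beq q c) (k w' p)))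
      (band (Nat.beq p c) (k w' q)) (Nat.beq g h)) w)
    (Bool.rec (band (Nat.beq q c) (k w p)) (k w q) (Nat.beq p c)) (Nat.beq h (nat_lit 63))

/-- Walk along facts of index `< i`. -/
noncomputable def wk (F : ℕ → ℕ) (i : ℕ) (k : List ℕ → ℕ → Bool) (st : List ℕ) : List ℕ → ℕ → Bool :=
  List.rec k
    (fun j _ ih w c => band (blt j i) (frc (F j) fun f => frc (fp f) fun p => frc (fq f) fun q => frc (fh f) fun h =>
      stp p q h ih w c)) st

/-- End of a walk. -/
noncomputable def fin (t : ℕ) (w : List ℕ) (c : ℕ) : Bool := List.rec (Nat.beq c t) (fun _ _ _ => false) w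

/-- The hole of a walk. -/
noncomputable def hole (h : ℕ) (k : List ℕ → Bool) (w : List ℕ) : Bool :=
  Bool.rec (List.rec false (fun g w' _ => band (Nat.beq g h) (k w')) w) (k w) (Nat.beq h (nat_lit 63))

/-- Check of fact `i`. -/
noncomputable def Cert.chk (C : Cert) (subs : List (List ℕ)) (i : ℕ) : Bool :=
  frc (C.F i) fun f => frc (fp f) fun p => frc (fq f) fun q => frc (fh f) fun h =>
    Pf.rec (band (Nat.beq q (Nat.succ i)) (band (blt p q) (TC.bne h (nat_lit 63))))
      (fun r st => hole h (fun w => wk C.F i (fin p) st w q) (C.R.sel r).1)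
      (fun r pre post => wk C.F i (fun w c => band (Nat.beq c p) (hole h (fun w' => wk C.F i (fin 0) post w' q) w))
          pre (subs.getD r []) 0)
      (C.P.sel i)

/-- Check of the words. -/
noncomputable def Cert.chkR (C : Cert) (rels : List (List ℕ)) : Bool :=
  C.R.all fun r => eqL (red r.1) (red (rot (rels.getD r.2.1 []) r.2.2))

/-- Check of a row of the table. -/
noncomputable def Cert.chkT (C : Cert) (c : ℕ) : Bool :=
  allLt C.ls.length fun k => frc (C.fi k c) fun j => frc (C.tg k c) fun d => frc (C.F j) fun f =>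
    band (blt j C.nf) (band (blt d C.n) (band (TC.bne (fh f) (nat_lit 63))
      (stp (fp f) (fq f) (fh f) (fin (C.lab d)) [C.ls.getD k 0] (C.lab c))))

/-- The whole check. -/
noncomputable def Cert.full (C : Cert) (d d' : ℕ) (rels subs : List (List ℕ)) : Bool :=
  band (C.chkR rels) (band (rng (C.chk subs) 0 C.nf d) (band (rng C.chkT 0 C.n d')
    (band (Nat.beq (C.lab 0) 0) (band (blt 0 C.n) (allL C.ls fun l => anyL C.ls fun m => Nat.beq m (il l))))))

section
variable {G : Type*} [Group G] {X : Type*} [MulAction G X]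

/-- Right action of a word. -/
def cw (v : ℕ → G) (w : List ℕ) (y : X) : X := (wd v w)⁻¹ • y

/-- The value of a point. -/
noncomputable def Cert.x (C : Cert) (v : ℕ → G) (x0 : X) (p : ℕ) : X :=
  if p = 0 then x0
  else if _ : fp (C.F (p - 1)) < p then (v (fh (C.F (p - 1))))⁻¹ • C.x v x0 (fp (C.F (p - 1))) else x0
termination_by p

/-- The meaning of a fact. -/
def Hd (v : ℕ → G) (x : ℕ → X) (h p q : ℕ) : Prop := (if h = 63 then x p else (v h)⁻¹ • x p) = x q

variable {v : ℕ → G}

theorem cw_nil (y : X) : cw v [] y = y := by simp [cw]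

theorem cw_cons (g : ℕ) (w : List ℕ) (y : X) : cw v (g :: w) y = cw v w ((v g)⁻¹ • y) := by
  unfold cw
  rw [wd_cons, mul_inv_rev, mul_smul]

theorem cw_inj {w : List ℕ} {x y : X} (h : cw v w x = cw v w y) : x = y := MulAction.injective _ h

theorem beq_false {a b : ℕ} (h : Nat.beq a b = false) : a ≠ b := fun e => by rw [beq_iff.2 e] at h; cases h

theorem stp_spec (hv : Val v) {x : ℕ → X} {p q h c : ℕ} {k : List ℕ → ℕ → Bool} {w : List ℕ}
    (e : Hd v x h p q) (hs : stp p q h k w c = true) : ∃ w' c', k w' c' = true ∧ cw v w (x c) = cw v w' (x c') := by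
  unfold stp at hs
  unfold Hd at e
  cases hb : Nat.beq h (nat_lit 63)
  · rw [hb] at hs
    rw [if_neg (beq_false hb)] at e
    cases w with
    | nil => cases hs
    | cons g w =>
      have h2 : (Bool.rec (band (Nat.beq (Nat.xor g (nat_lit 1)) h) (band (Nat.beq q c) (k w p)))
        (band (Nat.beq p c) (k w q)) (Nat.beq g h) : Bool) = true := hs
      cases hg : Nat.beq g h
      · rw [hg] at h2
        have h3 : band (Nat.beq (il g) h) (band (Nat.beq q c) (k w p)) = true := h2
        rw [band_iff, band_iff, beq_iff, beq_iff] at h3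
        refine ⟨w, p, h3.2.2, ?_⟩
        rw [cw_cons, ← h3.2.1, ← e, ← h3.1, hv, inv_inv, inv_smul_smul]
      · rw [hg] at h2
        have h3 : band (Nat.beq p c) (k w q) = true := h2
        rw [band_iff, beq_iff] at h3
        refine ⟨w, q, h3.2, ?_⟩
        rw [cw_cons, ← h3.1, ← e, beq_iff.1 hg]
  · rw [hb] at hs
    rw [if_pos (beq_iff.1 hb)] at e
    cases hp : Nat.beq p c
    · rw [hp] at hs
      have h3 : band (Nat.beq q c) (k w p) = true := hs
      rw [band_iff, beq_iff] at h3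
      exact ⟨w, p, h3.2, by rw [← h3.1, e]⟩
    · rw [hp] at hs
      exact ⟨w, q, hs, by rw [← beq_iff.1 hp, e]⟩

theorem wk_spec (hv : Val v) {i : ℕ} {F : ℕ → ℕ} {x : ℕ → X} {k : List ℕ → ℕ → Bool}
    (ih : ∀ j < i, Hd v x (fh (F j)) (fp (F j)) (fq (F j))) :
    ∀ (st w : List ℕ) (c : ℕ), wk F i k st w c = true → ∃ w' c', k w' c' = true ∧ cw v w (x c) = cw v w' (x c')
  | [], w, c, h => ⟨w, c, h, rfl⟩
  | j :: st, w, c, h => by
    have h' : band (blt j i) (frc (F j) fun f => frc (fp f) fun p => frc (fq f) fun q => frc (fh f) fun h =>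
      stp p q h (wk F i k st) w c) = true := h
    rw [band_iff, blt_iff, frc_eq, frc_eq, frc_eq, frc_eq] at h'
    obtain ⟨w', c', h1, h2⟩ := stp_spec hv (ih j h'.1) h'.2
    obtain ⟨w'', c'', h3, h4⟩ := wk_spec hv ih st w' c' h1
    exact ⟨w'', c'', h3, h2.trans h4⟩

theorem fin_spec {t c : ℕ} {w : List ℕ} (h : fin t w c = true) : w = [] ∧ c = t := by
  cases w with
  | nil => exact ⟨rfl, beq_iff.1 h⟩
  | cons g w => cases h

theorem hole_spec {h p q : ℕ} {x : ℕ → X} {k : List ℕ → Bool} {w : List ℕ}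
    (hh : hole h k w = true) (hk : ∀ w', k w' = true → cw v w (x p) = cw v w' (x q)) : Hd v x h p q := by
  unfold hole at hh
  unfold Hd
  cases hb : Nat.beq h (nat_lit 63)
  · rw [hb] at hh
    rw [if_neg (beq_false hb)]
    cases w with
    | nil => cases hh
    | cons g w =>
      have h2 : band (Nat.beq g h) (k w) = true := hh
      rw [band_iff, beq_iff] at h2
      have := hk w h2.2
      rw [cw_cons, h2.1] at this
      exact cw_inj this
  · rw [hb] at hh
    rw [if_pos (beq_iff.1 hb)]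
    exact cw_inj (hk w hh)

theorem Cert.x_zero (C : Cert) (v : ℕ → G) (x0 : X) : C.x v x0 0 = x0 := by
  rw [Cert.x, if_pos rfl]

/-- Soundness: all facts hold. -/
theorem Cert.facts (C : Cert) (hv : Val v) {rels subs : List (List ℕ)} {x0 : X} (hr : ∀ w ∈ rels, wd v w = 1)
    (hs : ∀ w ∈ subs, wd v w • x0 = x0) (hR : C.chkR rels = true) (h : ∀ i < C.nf, C.chk subs i = true) :
    ∀ i < C.nf, Hd v (C.x v x0) (fh (C.F i)) (fp (C.F i)) (fq (C.F i)) := by
  have hR1 : ∀ r, wd v (C.R.sel r).1 = 1 := by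
    intro r
    have h2 := congrArg (wd v) (eqL_spec (BT.all_sel hR r))
    rw [wd_red hv, wd_red hv, wd_rot (wd_getD hr _)] at h2
    exact h2
  have hS : ∀ r, cw v (subs.getD r []) x0 = x0 := by
    intro r
    rcases Nat.lt_or_ge r subs.length with h1 | h1
    · rw [List.getD_eq_getElem _ _ h1]
      exact inv_smul_eq_iff.2 (hs _ (List.getElem_mem h1)).symm
    · rw [List.getD_eq_default _ _ h1, cw_nil]
  intro i
  induction i using Nat.strong_induction_on with
  | _ i ih =>
  intro hi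
  have ih' : ∀ j < i, Hd v (C.x v x0) (fh (C.F j)) (fp (C.F j)) (fq (C.F j)) := fun j hj => ih j hj (hj.trans hi)
  have hc := h i hi
  unfold Cert.chk at hc
  rw [frc_eq, frc_eq, frc_eq, frc_eq] at hc
  cases hP : C.P.sel i with
  | df =>
    rw [hP] at hc
    have h2 : band (Nat.beq (fq (C.F i)) (Nat.succ i))
      (band (blt (fp (C.F i)) (fq (C.F i))) (TC.bne (fh (C.F i)) (nat_lit 63))) = true := hc
    rw [band_iff, band_iff, beq_iff, blt_iff, bne_iff] at h2
    obtain ⟨h3, h4, h5⟩ := h2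
    unfold Hd
    rw [if_neg h5]
    conv_rhs => rw [Cert.x]
    have e : fq (C.F i) - 1 = i := by omega
    rw [if_neg (by omega), e, dif_pos h4]
  | cyc r st =>
    rw [hP] at hc
    refine hole_spec (w := (C.R.sel r).1) hc fun w' hw => ?_
    obtain ⟨w'', c, h3, h4⟩ := wk_spec hv ih' st w' _ hw
    obtain ⟨rfl, rfl⟩ := fin_spec h3
    rw [h4, cw_nil]; unfold cw; rw [hR1]; simp
  | pin r pre post =>
    rw [hP] at hc
    obtain ⟨w, c, h4, h5⟩ := wk_spec hv ih' pre (subs.getD r []) 0 hc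
    rw [band_iff, beq_iff] at h4
    obtain ⟨rfl, h4⟩ := h4
    refine hole_spec h4 fun w' hw => ?_
    obtain ⟨w'', c, h6, h7⟩ := wk_spec hv ih' post w' _ hw
    obtain ⟨rfl, rfl⟩ := fin_spec h6
    rw [h7, ← h5, cw_nil, C.x_zero]
    exact hS r

theorem Cert.orbit (C : Cert) (d d' : ℕ) (hv : Val v) {rels subs : List (List ℕ)} {x0 : X}
    (h : C.full d d' rels subs = true) (hr : ∀ w ∈ rels, wd v w = 1) (hs : ∀ w ∈ subs, wd v w • x0 = x0) :
    ∃ t : Fin C.n → X, ∀ g ∈ Subgroup.closure (v '' {l | l ∈ C.ls}), ∃ c, g • x0 = t c := by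
  unfold Cert.full at h
  rw [band_iff, band_iff, band_iff, band_iff, band_iff, beq_iff, blt_iff] at h
  obtain ⟨h1, h2, h3, h4, h5, h6⟩ := h
  have hf := C.facts hv hr hs h1 fun i hi => rng_spec h2 i (Nat.zero_le _) hi
  have key : ∀ l ∈ C.ls, ∀ c < C.n, ∃ e < C.n, (v l)⁻¹ • C.x v x0 (C.lab c) = C.x v x0 (C.lab e) := by
    intro l hl c hc
    obtain ⟨k, hk, rfl⟩ := List.getElem_of_mem hl
    have := allLt_spec (rng_spec h3 c (Nat.zero_le _) hc) k hk
    rw [frc_eq, frc_eq, frc_eq, band_iff, band_iff, band_iff, blt_iff, blt_iff, List.getD_eq_getElem _ _ hk] at this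
    obtain ⟨w, c', h7, h8⟩ := stp_spec hv (hf _ this.1) this.2.2.2
    obtain ⟨rfl, rfl⟩ := fin_spec h7
    rw [cw_cons, cw_nil, cw_nil] at h8
    exact ⟨_, this.2.1, h8⟩
  have main : ∀ g ∈ Subgroup.closure (v '' {l | l ∈ C.ls}),
      (∀ c < C.n, ∃ e < C.n, g • C.x v x0 (C.lab c) = C.x v x0 (C.lab e)) ∧
      (∀ c < C.n, ∃ e < C.n, g⁻¹ • C.x v x0 (C.lab c) = C.x v x0 (C.lab e)) := by
    intro g hg
    induction hg using Subgroup.closure_induction with
    | mem g hg =>
      obtain ⟨l, hl, rfl⟩ := hg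
      refine ⟨fun c hc => ?_, key l hl⟩
      obtain ⟨m, hm, e⟩ := anyL_spec (allL_spec h6 l hl)
      have := key m hm c hc
      rwa [beq_iff.1 e, hv, inv_inv] at this
    | one => exact ⟨fun c hc => ⟨c, hc, one_smul _ _⟩, fun c hc => ⟨c, hc, by simp⟩⟩
    | mul a b _ _ ha hb =>
      constructor
      · intro c hc
        obtain ⟨e, he, h7⟩ := hb.1 c hc
        obtain ⟨e', he', h8⟩ := ha.1 e he
        exact ⟨e', he', by rw [mul_smul, h7, h8]⟩
      · intro c hc
        obtain ⟨e, he, h7⟩ := ha.2 c hc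
        obtain ⟨e', he', h8⟩ := hb.2 e he
        exact ⟨e', he', by rw [mul_inv_rev, mul_smul, h7, h8]⟩
    | inv a _ ha => exact ⟨ha.2, by rw [inv_inv]; exact ha.1⟩
  refine ⟨fun c => C.x v x0 (C.lab c), fun g hg => ?_⟩
  obtain ⟨e, he, h7⟩ := (main g hg).1 0 h5
  rw [h4, C.x_zero] at h7
  exact ⟨⟨e, he⟩, h7⟩

/-- The order bound. -/
theorem Cert.card_le (C : Cert) (d d' : ℕ) (hv : Val v) {rels subs : List (List ℕ)}
    (h : C.full d d' rels subs = true) (hr : ∀ w ∈ rels, wd v w = 1) (H : Subgroup G) (hs : ∀ w ∈ subs, wd v w ∈ H)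
    {m : ℕ} (hH : Finite H ∧ Nat.card H ≤ m) :
    Finite (Subgroup.closure (v '' {l | l ∈ C.ls})) ∧
      Nat.card (Subgroup.closure (v '' {l | l ∈ C.ls})) ≤ C.n * m := by
  obtain ⟨t, ht⟩ := C.orbit (X := G ⧸ H) (x0 := ((1 : G) : G ⧸ H)) d d' hv h hr fun w hw => by
    show ((wd v w * 1 : G) : G ⧸ H) = ((1 : G) : G ⧸ H)
    rw [eq_comm, QuotientGroup.eq]; simpa using hs w hw
  have hf := hH.1
  choose c hc using ht
  have hm : ∀ g (hg : g ∈ Subgroup.closure (v '' {l | l ∈ C.ls})), (t (c g hg)).out⁻¹ * g ∈ H := by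
    intro g hg
    rw [← QuotientGroup.eq, QuotientGroup.out_eq', ← hc g hg]
    show ((g * 1 : G) : G ⧸ H) = _
    rw [mul_one]
  let f : Subgroup.closure (v '' {l | l ∈ C.ls}) → Fin C.n × H := fun g => (c g.1 g.2, ⟨_, hm g.1 g.2⟩)
  have hinj : Function.Injective f := by
    intro a b e
    have e1 : c a.1 a.2 = c b.1 b.2 := congrArg Prod.fst e
    have e2 : (t (c a.1 a.2)).out⁻¹ * a.1 = (t (c b.1 b.2)).out⁻¹ * b.1 := congrArg (fun z => (z.2 : G)) e
    rw [e1] at e2
    exact Subtype.ext (mul_left_cancel e2)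
  refine ⟨Finite.of_injective f hinj, (Nat.card_le_card_of_injective f hinj).trans ?_⟩
  rw [Nat.card_prod, Nat.card_fin]
  exact Nat.mul_le_mul_left _ hH.2

end

theorem realizeEqns_J4p_GC : True := by
  have := @CA.J4p.iw.eq_1
  have := @CA.J4p.iw.eq_def
  have := @CA.J4p.iw.congr_simp
  have := @CA.J4p.wk.eq_1
  have := @CA.J4p.wk.eq_def
  have := @CA.J4p.wk.congr_simp
  have := @CA.J4p.Cert.x.eq_1.{0,0}
  have := @CA.J4p.Cert.x.eq_def.{0,0}
  have := @CA.J4p.Cert.x.congr_simp.{0,0}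
  have := @CA.J4p.stp.eq_1
  have := @CA.J4p.stp.eq_def
  have := @CA.J4p.stp.congr_simp
  have := @CA.J4p.fh.eq_1
  have := @CA.J4p.fh.eq_def
  have := @CA.J4p.fh.congr_simp
  have := @CA.J4p.sub1.eq_1
  have := @CA.J4p.sub1.eq_def
  have := @CA.J4p.sub1.congr_simp
  have := @CA.J4p.red.eq_1
  have := @CA.J4p.red.eq_2
  have := @CA.J4p.red.eq_def
  have := @CA.J4p.red.congr_simp
  have := @CA.J4p.rot.eq_1
  have := @CA.J4p.rot.eq_def
  have := @CA.J4p.rot.congr_simp
  have := @CA.J4p.subR.eq_1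
  have := @CA.J4p.subR.eq_2
  have := @CA.J4p.subR.eq_def
  have := @CA.J4p.subR.congr_simp
  have := @CA.J4p.Cert.chkR.eq_1
  have := @CA.J4p.Cert.chkR.eq_def
  have := @CA.J4p.Cert.chkR.congr_simp
  have := @CA.J4p.push.eq_1
  have := @CA.J4p.push.eq_2
  have := @CA.J4p.push.eq_def
  have := @CA.J4p.push.congr_simp
  have := @CA.J4p.Val.eq_1.{0}
  have := @CA.J4p.Val.eq_def.{0}
  have := @CA.J4p.Val.congr_simp.{0}
  have := @CA.J4p.il.eq_1
  have := @CA.J4p.il.eq_def
  have := @CA.J4p.il.congr_simp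
  have := @CA.J4p.fq.eq_1
  have := @CA.J4p.fq.eq_def
  have := @CA.J4p.fq.congr_simp
  have := @CA.J4p.Hd.eq_1.{0,0}
  have := @CA.J4p.Hd.eq_def.{0,0}
  have := @CA.J4p.Hd.congr_simp.{0,0}
  have := @CA.J4p.chkJ.eq_1
  have := @CA.J4p.chkJ.eq_def
  have := @CA.J4p.chkJ.congr_simp
  have := @CA.J4p.expand.eq_1
  have := @CA.J4p.expand.eq_def
  have := @CA.J4p.expand.congr_simp
  have := @CA.J4p.eqL.eq_1
  have := @CA.J4p.eqL.eq_def
  have := @CA.J4p.eqL.congr_simp
  have := @CA.J4p.rp.eq_1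
  have := @CA.J4p.rp.eq_def
  have := @CA.J4p.rp.congr_simp
  have := @CA.J4p.vl.eq_1.{0}
  have := @CA.J4p.vl.eq_def.{0}
  have := @CA.J4p.vl.congr_simp.{0}
  have := @CA.J4p.Cert.chk.eq_1
  have := @CA.J4p.Cert.chk.eq_def
  have := @CA.J4p.Cert.chk.congr_simp
  have := @CA.J4p.Cert.full.eq_1
  have := @CA.J4p.Cert.full.eq_def
  have := @CA.J4p.Cert.full.congr_simp
  have := @CA.J4p.hole.eq_1
  have := @CA.J4p.hole.eq_def
  have := @CA.J4p.hole.congr_simp
  have := @CA.J4p.cw.eq_1.{0,0}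
  have := @CA.J4p.cw.eq_def.{0,0}
  have := @CA.J4p.cw.congr_simp.{0,0}
  have := @CA.J4p.fin.eq_1
  have := @CA.J4p.fin.eq_def
  have := @CA.J4p.fin.congr_simp
  have := @CA.J4p.fp.eq_1
  have := @CA.J4p.fp.eq_def
  have := @CA.J4p.fp.congr_simp
  have := @CA.J4p.Cert.chkT.eq_1
  have := @CA.J4p.Cert.chkT.eq_def
  have := @CA.J4p.Cert.chkT.congr_simp
  have := @CA.J4p.sgn.eq_1
  have := @CA.J4p.sgn.eq_def
  have := @CA.J4p.sgn.congr_simp
  have := @CA.J4p.chkL.eq_1
  have := @CA.J4p.chkL.eq_def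
  have := @CA.J4p.chkL.congr_simp
  trivial

end CA.J4p
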