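/-
The seven relators on `x, y` in the presentation of `J₄` present `M₂₄`.
-/
import Cfsg.Agent.J4p.D2
import Cfsg.Agent.M24.Gens
set_option autoImplicit false
set_option maxRecDepth 100000

namespace CA.J4p
open CA.TC Subgroup Cfsg

section
variable {G : Type*} [Group G]

/-- The valuation of the Schreier generators. -/
def v1 (g : ℕ → G) : ℕ → G := vl fun k => wd (vl g) (dE k)

theorem wd_v1 (g : ℕ → G) (w : List ℕ) : wd (v1 g) w = wd (vl g) (expand dE w) := (wd_expand (val_vl g) dE w).symm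

theorem wd_mem {v : ℕ → G} {ls w : List ℕ} (h : ∀ l ∈ w, l ∈ ls) : wd v w ∈ closure (v '' {l | l ∈ ls}) := by
  induction w with
  | nil => exact one_mem _
  | cons a w ih =>
    rw [wd_cons]
    exact mul_mem (subset_closure ⟨a, h a List.mem_cons_self, rfl⟩) (ih fun l hl => h l (List.mem_cons_of_mem _ hl))

variable {g : ℕ → G}

theorem rl1_one (h : ∀ w ∈ axs, wd (vl g) w = 1) : ∀ w ∈ rl1, wd (v1 g) w = 1 := by
  have h1 : ∀ w ∈ axs, expand dE w = w := by decide +kernel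
  have h2 := store_sound (val_vl g) (E := dE) (axs := axs) (fun w hw => by rw [← wd_expand (val_vl g), h1 w hw, h w hw])
    fun n hn => rng_spec sK_chk n (Nat.zero_le _) hn
  exact chkL_spec (P := fun w => wd (v1 g) w = 1) h2 sK_l

theorem rl3_one (h : ∀ w ∈ axs, wd (vl g) w = 1) : ∀ w ∈ rl3, wd (v1 g) w = 1 :=
  fun w hw => rl1_one h w ((by decide +kernel : ∀ w ∈ rl3, w ∈ rl1) w hw)

theorem base5 (h : ∀ w ∈ axs, wd (vl g) w = 1) :
    Finite (zpowers (wd (v1 g) [37, 32])) ∧ Nat.card (zpowers (wd (v1 g) [37, 32])) ≤ 5 := by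
  have h1 : wd (v1 g) [37, 32] ^ 5 = 1 := by rw [← wd_rp]; exact rl3_one h _ (by decide +kernel)
  exact ⟨finite_zpowers.2 (isOfFinOrder_iff_pow_eq_one.2 ⟨5, by norm_num, h1⟩),
    by rw [Nat.card_zpowers]; exact orderOf_le_of_pow_eq_one (by norm_num) h1⟩

theorem bound (h : ∀ w ∈ axs, wd (vl g) w = 1) (hg : closure {g 0, g 1} = ⊤) {m : ℕ}
    (hm : Finite (closure (v1 g '' {l | l ∈ [32, 33, 36, 37, 48, 49]})) ∧
      Nat.card (closure (v1 g '' {l | l ∈ [32, 33, 36, 37, 48, 49]})) ≤ m) :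
    Finite G ∧ Nat.card G ≤ 24 * (23 * (77 * m)) := by
  have hv : Val (v1 g) := val_vl _
  have h3 := c3C.card_le _ _ hv c3k (fun w hw => rl1_one h w ((by decide +kernel : ∀ w ∈ rl2, w ∈ rl1) w hw)) _
    (fun w hw => wd_mem ((by decide +kernel : ∀ w ∈ [[32], [36], [48]], ∀ l ∈ w, l ∈ [32, 33, 36, 37, 48, 49]) w hw)) hm
  have h2 := c2C.card_le _ _ hv c2k (rl1_one h) _
    (fun w hw => wd_mem ((by decide +kernel : ∀ w ∈ [[32], [36], [48], [52]], ∀ l ∈ w, l ∈ c3C.ls) w hw)) h3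
  have h1 := c1C.card_le _ _ (val_vl g) c1k h _ (fun w hw => by
    have e : ∀ k, 2 * k ∈ c2C.ls → wd (vl g) (dE k) ∈ closure (v1 g '' {l | l ∈ c2C.ls}) := fun k hk =>
      subset_closure ⟨2 * k, hk, by unfold v1; rw [vl, if_pos (by omega), show 2 * k / 2 = k by omega]⟩
    simp only [List.mem_cons, List.not_mem_nil, or_false] at hw
    rcases hw with rfl | rfl | rfl | rfl | rfl | rfl | rfl <;> exact e _ (by decide +kernel)) h2
  have e : closure (vl g '' {l | l ∈ c1C.ls}) = ⊤ := by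
    refine top_le_iff.1 (hg ▸ closure_mono ?_)
    rintro a (rfl | rfl)
    · exact ⟨0, (by decide +kernel : 0 ∈ c1C.ls), rfl⟩
    · exact ⟨2, (by decide +kernel : 2 ∈ c1C.ls), rfl⟩
  rw [e, Subgroup.card_top] at h1
  have := h1.1
  exact ⟨Finite.of_equiv _ topEquiv.toEquiv, h1.2⟩

theorem bound1 (h : ∀ w ∈ axs, wd (vl g) w = 1) (hg : closure {g 0, g 1} = ⊤) :
    Finite G ∧ Nat.card G ≤ 3 * 244823040 :=
  bound h hg (c4C.card_le _ _ (val_vl _) c4k (rl3_one h) _ (fun w hw => by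
    rw [List.mem_singleton.1 hw]; exact mem_zpowers _) (base5 h))

theorem bound2 (h : ∀ w ∈ axs, wd (vl g) w = 1) (hg : closure {g 0, g 1} = ⊤) (hx : wd (v1 g) rex = 1) :
    Finite G ∧ Nat.card G ≤ 244823040 :=
  bound h hg (c5C.card_le _ _ (val_vl _) c5k (fun w hw => by
    rcases List.mem_append.1 hw with hw | hw
    · exact rl3_one h w hw
    · rw [List.mem_singleton.1 hw]; exact hx) _ (fun w hw => by
    rw [List.mem_singleton.1 hw]; exact mem_zpowers _) (base5 h))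

theorem sq_comm (N : Subgroup G) [hN : N.Normal] [Finite N] (h3 : Nat.card N ≤ 3) {n : G} (hn : n ∈ N) (a : G) :
    Commute (a ^ 2) n := by
  by_contra hc
  have h1 : ¬ Commute a n := fun h => hc (h.pow_left 2)
  have hne : n ≠ 1 := fun e => h1 (e ▸ Commute.one_right a)
  let f : Fin 4 → N := ![1, ⟨n, hn⟩, ⟨a * n * a⁻¹, hN.conj_mem n hn a⟩, ⟨a ^ 2 * n * (a ^ 2)⁻¹, hN.conj_mem n hn _⟩]
  have c1 : ∀ b : G, b * n * b⁻¹ ≠ 1 := fun b e => hne (by simpa using conj_eq_one_iff.1 e)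
  have c2 : ∀ b : G, ¬ Commute b n → n ≠ b * n * b⁻¹ := fun b hb e => hb (by
    show b * n = n * b
    conv_rhs => rw [e]
    group)
  have c3 : a * n * a⁻¹ ≠ a ^ 2 * n * (a ^ 2)⁻¹ := fun e => c2 a h1 (by
    calc n = a⁻¹ * (a * n * a⁻¹) * a := by group
      _ = a⁻¹ * (a ^ 2 * n * (a ^ 2)⁻¹) * a := by rw [e]
      _ = _ := by group)
  have hf : Function.Injective f := by
    intro i j e
    have e' := congrArg Subtype.val e
    fin_cases i <;> fin_cases j <;> first | rfl | (exfalso; first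
      | exact hne e' | exact hne e'.symm | exact c1 _ e' | exact c1 _ e'.symm | exact c2 _ h1 e' | exact c2 _ h1 e'.symm
      | exact c2 _ hc e' | exact c2 _ hc e'.symm | exact c3 e' | exact c3 e'.symm)
  have := Nat.card_le_card_of_injective f hf
  rw [Nat.card_fin] at this
  omega

theorem comm_of_central {H : Type*} [Group H] (π : G →* H) (hc : ∀ n, π n = 1 → ∀ a, Commute a n) {c s t q : G}
    (hs : π (c * s * c⁻¹ * s⁻¹) = 1) (ht : π (c * t * c⁻¹ * t⁻¹) = 1) (hq : π (q * (s * t * s⁻¹ * t⁻¹)⁻¹) = 1) :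
    c * q * c⁻¹ * q⁻¹ = 1 := by
  have h1 := hc _ hs
  have h2 := hc _ ht
  have h3 := hc _ hq
  generalize hα : c * s * c⁻¹ * s⁻¹ = α at h1
  generalize hβ : c * t * c⁻¹ * t⁻¹ = β at h2
  generalize hγ : q * (s * t * s⁻¹ * t⁻¹)⁻¹ = γ at h3
  have e1 : c * s * c⁻¹ = α * s := by rw [← hα]; group
  have e2 : c * t * c⁻¹ = β * t := by rw [← hβ]; group
  have e3 : q = γ * (s * t * s⁻¹ * t⁻¹) := by rw [← hγ]; group
  have e4 : c * (s * t * s⁻¹ * t⁻¹) * c⁻¹ = s * t * s⁻¹ * t⁻¹ := by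
    calc _ = (c * s * c⁻¹) * (c * t * c⁻¹) * (c * s * c⁻¹)⁻¹ * (c * t * c⁻¹)⁻¹ := by group
      _ = α * (s * β * t * s⁻¹) * α⁻¹ * t⁻¹ * β⁻¹ := by rw [e1, e2]; group
      _ = s * β * (t * s⁻¹ * t⁻¹) * β⁻¹ := by rw [← (h1 _).eq]; group
      _ = _ := by rw [mul_assoc s β, ← (h2 _).eq]; group
  calc c * q * c⁻¹ * q⁻¹ = (c * γ) * (s * t * s⁻¹ * t⁻¹) * c⁻¹ * q⁻¹ := by rw [e3]; group
    _ = γ * (c * (s * t * s⁻¹ * t⁻¹) * c⁻¹) * q⁻¹ := by rw [(h3 c).eq]; group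
    _ = 1 := by rw [e4, ← e3, mul_inv_cancel]

end

open CA.M24 (Pt perm code pmul pinv pone evalW getL InH chk)

/-- The codes of the generators. -/
def X0 : ℕ := nat_lit 944161497745679255333934380313324082
def Y0 : ℕ := nat_lit 629939452811627404088008158767155954

theorem XY_in : ∀ c ∈ [X0, Y0], InH M24 c := CA.M24.inM_of_allL (by decide +kernel)

theorem M24_le_XY : M24 ≤ CA.M24.gen [X0, Y0] :=
  CA.M24.le_gen_of_chainLB [(0, 7, [[1, 1, 0], [0, 0, 1, 0, 0, 0, 1, 0, 0, 0, 1, 0, 1, 1, 1, 1, 1, 0, 1, 0]]), (1, 4, [[0, 1, 1, 0], [1, 1, 1, 0]]), (2, 4, [[0, 0, 0, 0, 1, 0, 1, 0], [0, 0, 0, 1, 1, 1]]), (3, 3, [[1, 1, 0, 0, 0, 1, 0], [1, 0, 1, 1, 0, 1, 0, 0, 1, 0]]), (4, 4, [[1, 1, 0, 0, 1, 0, 1, 1, 0, 1, 0], [1, 0, 1, 1, 0, 1, 0, 1], [0, 0, 1, 1, 1, 1, 1]]), (5, 2, [[0, 0, 1, 0, 0, 0, 1], [1, 0, 1]]), (6, 1, [])]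
    XY_in (by rw [CA.M24.card_M24]; decide +kernel)

/-- The generators of `M₂₄`. -/
noncomputable def x0 : M24 := ⟨perm X0, (XY_in X0 (by simp)).perm_mem⟩
noncomputable def y0 : M24 := ⟨perm Y0, (XY_in Y0 (by simp)).perm_mem⟩

theorem code_x0 : code (x0 : Equiv.Perm Pt) = X0 := (XY_in X0 (by simp)).code_perm
theorem code_y0 : code (y0 : Equiv.Perm Pt) = Y0 := (XY_in Y0 (by simp)).code_perm

/-- A pair as a valuation of the generators. -/
def pr {G : Type*} [Group G] (x y : G) (k : ℕ) : G := [x, y].getD k 1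

theorem pr_map {G H : Type*} [Group G] [Group H] (f : G →* H) (x y : G) :
    (fun k => f (pr x y k)) = pr (f x) (f y) := by
  funext k
  rcases k with _ | _ | k <;> simp [pr]

/-- The codes of the letters `x, x⁻¹, y, y⁻¹`. -/
noncomputable def cL : List ℕ := [X0, pinv X0, Y0, pinv Y0]

theorem evalW_cons (L : List ℕ) (l : ℕ) (w : List ℕ) : evalW L (l :: w) = pmul (getL L pone l) (evalW L w) := by
  have e : evalW L (l :: w) =
    CA.M24.force (evalW L w) fun a => CA.M24.force (getL L pone l) fun b => pmul b a := rfl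
  rw [e, CA.M24.force_eq, CA.M24.force_eq]

theorem code_wd' (p q : Equiv.Perm Pt) (w : List ℕ) :
    code (wd (vl (pr p q)) w) = evalW [code p, code p⁻¹, code q, code q⁻¹] w := by
  induction w with
  | nil => exact CA.M24.code_one
  | cons l w ih =>
    have e : code (vl (pr p q) l) = getL [code p, code p⁻¹, code q, code q⁻¹] pone l := by
      rcases l with _ | _ | _ | _ | l
      · exact congrArg code (rfl : vl (pr p q) 0 = p)
      · exact congrArg code (rfl : vl (pr p q) 1 = p⁻¹)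
      · exact congrArg code (rfl : vl (pr p q) 2 = q)
      · exact congrArg code (rfl : vl (pr p q) 3 = q⁻¹)
      · have h1 : pr p q ((l + 1 + 1 + 1 + 1) / 2) = 1 := by
          rw [show (l + 1 + 1 + 1 + 1) / 2 = l / 2 + 1 + 1 by omega]; rfl
        have h2 : vl (pr p q) (l + 1 + 1 + 1 + 1) = 1 := by
          unfold vl
          rw [h1, inv_one, ite_self]
        rw [h2]
        exact CA.M24.code_one
    rw [wd_cons, ← CA.M24.pmul_code, ih, e]
    generalize [code p, code p⁻¹, code q, code q⁻¹] = L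
    exact (evalW_cons L l w).symm

/-- Words in `x0, y0` are evaluated by `evalW`. -/
theorem code_wd (w : List ℕ) : code (wd (vl (pr (x0 : Equiv.Perm Pt) y0)) w) = evalW cL w := by
  rw [code_wd', ← CA.M24.pinv_code, ← CA.M24.pinv_code, code_x0, code_y0, cL]

theorem wd_eq_one {w : List ℕ} (h : Nat.beq (evalW cL w) pone = true) : wd (vl (pr x0 y0)) w = 1 := by
  apply Subtype.ext
  have := wd_map M24.subtype (pr x0 y0) w
  rw [pr_map] at this
  refine this.trans (CA.M24.code_inj ?_)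
  exact (code_wd w).trans ((beq_iff.1 h).trans CA.M24.code_one.symm)

theorem closure_xy : closure {x0, y0} = (⊤ : Subgroup M24) := by
  refine top_le_iff.1 fun a _ => ?_
  have h1 : CA.M24.gen [X0, Y0] ≤ (closure {x0, y0}).map M24.subtype := CA.M24.gen_le fun c hc => by
    simp only [List.mem_cons, List.not_mem_nil, or_false] at hc
    rcases hc with rfl | rfl
    · exact ⟨_, ⟨x0, subset_closure (by simp), rfl⟩, code_x0⟩
    · exact ⟨_, ⟨y0, subset_closure (by simp), rfl⟩, code_y0⟩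
  obtain ⟨b, hb, e⟩ := h1 (M24_le_XY a.2)
  rwa [← Subtype.ext e]

theorem axs_xy : ∀ w ∈ axs, wd (vl (pr x0 y0)) w = 1 := fun w hw =>
  wd_eq_one (allL_spec (f := fun w => Nat.beq (evalW cL w) pone) (by decide +kernel) w hw)

def ws : List ℕ := [0, 2, 0, 3, 0, 3, 0, 3, 0, 2, 0, 3, 0, 2, 0, 3, 0, 0, 3, 0, 2, 0, 2, 0, 3, 0, 3, 0, 3, 0, 3, 0, 3, 0, 2, 0, 2, 0, 3, 0, 3, 0, 3, 0, 2, 0, 3, 0, 2, 2, 0, 3, 0, 2, 0, 2, 0, 3, 0, 2, 0, 3, 0, 2, 0, 3, 0, 2, 0, 3, 0, 3, 0, 2, 0, 2, 0, 3, 0, 2, 0]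
def wt : List ℕ := [2, 0, 3, 0, 2, 0, 2, 0, 2, 0, 3, 0, 3, 0, 2, 0, 2, 0, 2, 0, 3, 0, 2, 0, 2, 0, 2, 0, 2, 0, 2, 0, 3]

theorem inj_of {F : Type*} [Group F] {x y : F} (h : ∀ w ∈ axs, wd (vl (pr x y)) w = 1) (hg : closure {x, y} = ⊤)
    (π : F →* M24) (hx : π x = x0) (hy : π y = y0) : Function.Bijective π := by
  have hs : Function.Surjective π := by
    rw [← MonoidHom.range_eq_top, MonoidHom.range_eq_map, ← hg, MonoidHom.map_closure, Set.image_pair, hx, hy,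
      closure_xy]
  have hv := val_vl (pr x y)
  obtain ⟨hf, h1⟩ := bound1 h hg
  have hk : Nat.card F = 244823040 * Nat.card π.ker := by
    rw [card_eq_card_quotient_mul_card_subgroup π.ker,
      Nat.card_congr (QuotientGroup.quotientKerEquivOfSurjective π hs).toEquiv, CA.M24.card_M24]
  have h3 : Nat.card π.ker ≤ 3 := by omega
  have hc : ∀ n, π n = 1 → ∀ a, Commute a n := by
    intro n hn a
    have hy3 : y ^ 3 = 1 := by simpa [wd_rp, vl, pr] using h (rp 3 [2]) (by simp [axs])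
    have hxy : (x * y) ^ 23 = 1 := by simpa [wd_rp, vl, pr] using h (rp 23 [0, 2]) (by simp [axs])
    have c1 : Commute y n := by
      have := (sq_comm π.ker h3 hn y).pow_left 2
      rwa [← pow_mul, show 2 * 2 = 3 + 1 by rfl, pow_succ, hy3, one_mul] at this
    have c2 : Commute (x * y) n := by
      have := (sq_comm π.ker h3 hn (x * y)).pow_left 12
      rwa [← pow_mul, show 2 * 12 = 23 + 1 by rfl, pow_succ, hxy, one_mul] at this
    have c3 : Commute x n := by simpa using c2.mul_left c1.inv_left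
    have : closure {x, y} ≤ centralizer {n} := (closure_le _).2 (by
      rintro b (rfl | rfl)
      · exact mem_centralizer_singleton_iff.2 c3
      · exact mem_centralizer_singleton_iff.2 c1)
    exact mem_centralizer_singleton_iff.1 (this (hg ▸ mem_top a))
  have hw : ∀ w, Nat.beq (evalW cL w) pone = true → π (wd (vl (pr x y)) w) = 1 := fun w hw => by
    rw [wd_map, pr_map, hx, hy]; exact wd_eq_one hw
  have hr : wd (v1 (pr x y)) rex = 1 := by
    have e : rex = [32] ++ wq ++ iw [32] ++ iw wq := by decide +kernel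
    have hv1 : Val (v1 (pr x y)) := val_vl _
    rw [e, wd_append, wd_append, wd_append, wd_iw hv1, wd_iw hv1, wd_v1, wd_v1]
    refine comm_of_central π hc (s := wd (vl (pr x y)) ws) (t := wd (vl (pr x y)) wt) ?_ ?_ ?_
    · have := hw (expand dE [32] ++ ws ++ iw (expand dE [32]) ++ iw ws) (by decide +kernel)
      rwa [wd_append, wd_append, wd_append, wd_iw hv, wd_iw hv] at this
    · have := hw (expand dE [32] ++ wt ++ iw (expand dE [32]) ++ iw wt) (by decide +kernel)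
      rwa [wd_append, wd_append, wd_append, wd_iw hv, wd_iw hv] at this
    · have := hw (expand dE wq ++ iw (ws ++ wt ++ iw ws ++ iw wt)) (by decide +kernel)
      rwa [wd_append, wd_iw hv, wd_append, wd_append, wd_append, wd_iw hv, wd_iw hv] at this
  have h2 := (bound2 h hg hr).2
  have h4 : 0 < Nat.card π.ker := Nat.card_pos
  exact ⟨(MonoidHom.ker_eq_bot_iff π).1 (card_eq_one.1 (by omega)), hs⟩

theorem axs_iff {Γ : Type*} [Group Γ] (x y : Γ) : (∀ w ∈ axs, wd (vl (pr x y)) w = 1) ↔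
    x ^ 2 = 1 ∧ y ^ 3 = 1 ∧ (x * y) ^ 23 = 1 ∧ (x⁻¹ * y⁻¹ * x * y) ^ 12 = 1 ∧
    (x⁻¹ * (y * x * y)⁻¹ * x * (y * x * y)) ^ 5 = 1 ∧ (x * y * ((x * y * x * (y⁻¹)) ^ 3)) ^ 4 = 1 ∧
    ((x * y * x * y * x * (y⁻¹)) ^ 3) * ((x * y * x * (y⁻¹) * x * (y⁻¹)) ^ 3) = 1 := by
  have e0 : vl (pr x y) 0 = x := rfl
  have e1 : vl (pr x y) 1 = x⁻¹ := rfl
  have e2 : vl (pr x y) 2 = y := rfl
  have e3 : vl (pr x y) 3 = y⁻¹ := rfl
  simp only [axs, List.forall_mem_cons, List.not_mem_nil, IsEmpty.forall_iff, implies_true, and_true, wd_rp, wd_append,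
    wd_cons, wd_nil, e0, e1, e2, e3, mul_one, mul_assoc, mul_inv_rev]

/-- `x0, y0` satisfy the relators. -/
theorem rel_xy : x0 ^ 2 = 1 ∧ y0 ^ 3 = 1 ∧ (x0 * y0) ^ 23 = 1 ∧ (x0⁻¹ * y0⁻¹ * x0 * y0) ^ 12 = 1 ∧
    (x0⁻¹ * (y0 * x0 * y0)⁻¹ * x0 * (y0 * x0 * y0)) ^ 5 = 1 ∧ (x0 * y0 * ((x0 * y0 * x0 * (y0⁻¹)) ^ 3)) ^ 4 = 1 ∧
    ((x0 * y0 * x0 * y0 * x0 * (y0⁻¹)) ^ 3) * ((x0 * y0 * x0 * (y0⁻¹) * x0 * (y0⁻¹)) ^ 3) = 1 :=
  (axs_iff x0 y0).1 axs_xy

theorem closure_pair {K : Type*} [Group K] (a b : K) :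
    closure {(⟨a, subset_closure (by simp)⟩ : closure {a, b}), ⟨b, subset_closure (by simp)⟩} = ⊤ := by
  rw [← closure_closure_coe_preimage (k := {a, b})]
  congr 1
  ext z
  simp [Subtype.ext_iff]

/-- The seven relators present `M₂₄`. -/
theorem m24_pres {Γ : Type*} [Group Γ] (x y : Γ) (h1 : x ^ 2 = 1) (h2 : y ^ 3 = 1) (h3 : (x * y) ^ 23 = 1)
    (h4 : (x⁻¹ * y⁻¹ * x * y) ^ 12 = 1) (h5 : (x⁻¹ * (y * x * y)⁻¹ * x * (y * x * y)) ^ 5 = 1)
    (h6 : (x * y * ((x * y * x * (y⁻¹)) ^ 3)) ^ 4 = 1)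
    (h7 : ((x * y * x * y * x * (y⁻¹)) ^ 3) * ((x * y * x * (y⁻¹) * x * (y⁻¹)) ^ 3) = 1) :
    ∃ φ : M24 →* Γ, φ x0 = x ∧ φ y0 = y := by
  have h := (axs_iff x y).2 ⟨h1, h2, h3, h4, h5, h6, h7⟩
  let S : Set (Γ × M24) := {(x, x0), (y, y0)}
  let a : closure S := ⟨(x, x0), subset_closure (Or.inl rfl)⟩
  let b : closure S := ⟨(y, y0), subset_closure (Or.inr rfl)⟩
  let p : closure S →* Γ := (MonoidHom.fst _ _).comp (closure S).subtype
  let π : closure S →* M24 := (MonoidHom.snd _ _).comp (closure S).subtype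
  have hg : closure {a, b} = ⊤ := closure_pair _ _
  have hb := inj_of (x := a) (y := b) (fun w hw => by
    have e1 : p (wd (vl (pr a b)) w) = 1 := by rw [wd_map, pr_map]; exact h w hw
    have e2 : π (wd (vl (pr a b)) w) = 1 := by rw [wd_map, pr_map]; exact axs_xy w hw
    exact Subtype.ext (Prod.ext e1 e2)) hg π rfl rfl
  let e := MulEquiv.ofBijective π hb
  refine ⟨p.comp e.symm.toMonoidHom, ?_, ?_⟩
  · have : e.symm x0 = a := e.symm_apply_eq.2 rfl
    show p (e.symm x0) = x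
    rw [this]; rfl
  · have : e.symm y0 = b := e.symm_apply_eq.2 rfl
    show p (e.symm y0) = y
    rw [this]; rfl

theorem realizeEqns_J4p_Pres : True := by
  have := @CA.J4p.Y0.eq_1
  have := @CA.J4p.Y0.eq_def
  have := @CA.J4p.Y0.congr_simp
  have := @CA.J4p.y0.eq_1
  have := @CA.J4p.y0.eq_def
  have := @CA.J4p.y0.congr_simp
  have := @CA.J4p.X0.eq_1
  have := @CA.J4p.X0.eq_def
  have := @CA.J4p.X0.congr_simp
  have := @CA.J4p.cL.eq_1
  have := @CA.J4p.cL.eq_def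
  have := @CA.J4p.cL.congr_simp
  have := @CA.J4p.v1.eq_1.{0}
  have := @CA.J4p.v1.eq_def.{0}
  have := @CA.J4p.v1.congr_simp.{0}
  have := @CA.J4p.x0.eq_1
  have := @CA.J4p.x0.eq_def
  have := @CA.J4p.x0.congr_simp
  have := @CA.J4p.wt.eq_1
  have := @CA.J4p.wt.eq_def
  have := @CA.J4p.wt.congr_simp
  have := @CA.J4p.ws.eq_1
  have := @CA.J4p.ws.eq_def
  have := @CA.J4p.ws.congr_simp
  have := @CA.J4p.pr.eq_1.{0}
  have := @CA.J4p.pr.eq_def.{0}
  have := @CA.J4p.pr.congr_simp.{0}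
  trivial

end CA.J4p
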